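import Cfsg.Agent.Lib.Lead.FH.Defs
set_option autoImplicit false
namespace Cfsg.Agent.Lib.Lead.FH

theorem wt_succ (a c : ℝ) (k : ℕ) : wt a c (k + 1) = a * wt c a k := rfl
theorem wt_zero (a c : ℝ) : wt a c 0 = 1 := rfl
theorem wt_add_two (a c : ℝ) (k : ℕ) : wt a c (k + 2) = a * c * wt a c k := by
  rw [wt_succ, wt_succ]; ring

theorem wt_two_mul (a c : ℝ) (i : ℕ) : wt a c (2 * i) = (a * c) ^ i := by
  induction i with
  | zero => simp [wt_zero]
  | succ i ih => rw [show 2 * (i + 1) = 2 * i + 2 by ring, wt_add_two, ih]; ring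

theorem wt_symm_of {m a c : ℕ} (hodd : Odd m → a = c) : wt (a : ℝ) c m = wt (c : ℝ) a m := by
  rcases Nat.even_or_odd m with he | ho
  · obtain ⟨i, rfl⟩ := he
    rw [show i + i = 2 * i by ring, wt_two_mul, wt_two_mul, mul_comm]
  · rw [hodd ho]

end Cfsg.Agent.Lib.Lead.FH
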