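import Cfsg.Agent.Lib.Lead.FH.ADefs
import Cfsg.Agent.Lib.Lead.FH.Wt
import Cfsg.Agent.Lib.Helper76.FHA1
import Cfsg.Agent.Lib.Helper65.FHA2
import Cfsg.Agent.Lib.Helper65.FHA3

set_option autoImplicit false
set_option linter.unusedSectionVars false

namespace Cfsg.Agent.Lib.Lead.FH

open Cfsg.Agent.Lib.Helper6.BN Matrix

universe u

section wmap
variable {G : Type*} [Group G] (P : Cfsg.BNPair G)

theorem wmap_of_mem {g : G} (h : g ∈ P.N) :
    wmap P g = QuotientGroup.mk' (torus P) ⟨g, h⟩ := by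
  unfold wmap; rw [dif_pos h]

theorem wmap_mul {g h : G} (hg : g ∈ P.N) (hh : h ∈ P.N) :
    wmap P (g * h) = wmap P g * wmap P h := by
  rw [wmap_of_mem P hg, wmap_of_mem P hh, wmap_of_mem P (P.N.mul_mem hg hh), ← map_mul]
  rfl

theorem wmap_one : wmap P 1 = 1 := by
  rw [wmap_of_mem P P.N.one_mem]
  exact (QuotientGroup.mk' (torus P)).map_one

theorem wmap_eq_iff {g h : G} (hg : g ∈ P.N) (hh : h ∈ P.N) :
    wmap P g = wmap P h ↔ Eqv P g h := by
  rw [wmap_of_mem P hg, wmap_of_mem P hh]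
  simp only [QuotientGroup.mk'_apply]
  rw [QuotientGroup.eq, Subgroup.mem_subgroupOf]
  simp only [Eqv, Subgroup.coe_mul, InvMemClass.coe_inv, Subgroup.mem_inf]
  constructor
  · exact fun h => h.1
  · exact fun h => ⟨h, P.N.mul_mem (P.N.inv_mem hg) hh⟩

theorem wmap_eq_one_iff {g : G} (hg : g ∈ P.N) : wmap P g = 1 ↔ g ∈ P.B := by
  rw [← wmap_one P, eq_comm, wmap_eq_iff P P.N.one_mem hg]
  simp [Eqv]

theorem alt_mem {H : Subgroup G} {s t : G} (hs : s ∈ H) (ht : t ∈ H) (k : ℕ) :
    alt s t k ∈ H ∧ alt t s k ∈ H := by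
  induction k with
  | zero => exact ⟨H.one_mem, H.one_mem⟩
  | succ k ih => exact ⟨H.mul_mem hs ih.2, H.mul_mem ht ih.1⟩

theorem wmap_alt {s t : G} (hs : s ∈ P.N) (ht : t ∈ P.N) (k : ℕ) :
    wmap P (alt s t k) = alt (wmap P s) (wmap P t) k ∧
      wmap P (alt t s k) = alt (wmap P t) (wmap P s) k := by
  induction k with
  | zero => exact ⟨wmap_one P, wmap_one P⟩
  | succ k ih =>
    constructor
    · show wmap P (s * alt t s k) = wmap P s * alt (wmap P t) (wmap P s) k
      rw [wmap_mul P hs (alt_mem ht hs k).1, ih.2]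
    · show wmap P (t * alt s t k) = wmap P t * alt (wmap P s) (wmap P t) k
      rw [wmap_mul P ht (alt_mem hs ht k).1, ih.1]

theorem wmap_list_prod (L : List G) (hL : ∀ x ∈ L, x ∈ P.N) :
    wmap P L.prod = (L.map (wmap P)).prod := by
  induction L with
  | nil => simpa using wmap_one P
  | cons x L ih =>
    have hx : x ∈ P.N := hL x List.mem_cons_self
    have hL' : ∀ y ∈ L, y ∈ P.N := fun y hy => hL y (List.mem_cons_of_mem _ hy)
    rw [List.prod_cons, List.map_cons, List.prod_cons,
      wmap_mul P hx (Subgroup.list_prod_mem _ hL'), ih hL']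

/-- the alternating list `[s, t, s, …]` of length `k` -/
def altList (s t : G) : ℕ → List G
  | 0 => []
  | (k + 1) => s :: altList t s k

theorem altList_prod (s t : G) (k : ℕ) : (altList s t k).prod = alt s t k := by
  induction k generalizing s t with
  | zero => rfl
  | succ k ih => simp [altList, alt, ih]

theorem altList_length (s t : G) (k : ℕ) : (altList s t k).length = k := by
  induction k generalizing s t with
  | zero => rfl
  | succ k ih => simp [altList, ih]

theorem altList_mem (s t : G) (k : ℕ) : ∀ x ∈ altList s t k, x = s ∨ x = t := by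
  induction k generalizing s t with
  | zero => simp [altList]
  | succ k ih =>
    intro x hx
    simp only [altList, List.mem_cons] at hx
    rcases hx with rfl | hx
    · exact Or.inl rfl
    · exact (ih t s x hx).symm

end wmap

section main
variable {G : Type u} [Group G] [Finite G] (P : Cfsg.BNPair G)

theorem wmap_sq {s : G} (hs : s ∈ P.S) : wmap P s * wmap P s = 1 := by
  rw [← wmap_mul P (P.subset hs) (P.subset hs),
    wmap_eq_one_iff P (P.N.mul_mem (P.subset hs) (P.subset hs))]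
  exact P.sq_mem s hs

theorem wmap_ne_one {s : G} (hs : s ∈ P.S) : wmap P s ≠ 1 := by
  rw [Ne, wmap_eq_one_iff P (P.subset hs)]
  exact not_mem_B P hs

theorem wmap_ne {s t : G} (hs : s ∈ P.S) (ht : t ∈ P.S) (hst : s ≠ t) :
    wmap P s ≠ wmap P t := by
  rw [Ne, wmap_eq_iff P (P.subset hs) (P.subset ht)]
  exact fun h => hst (P.inj s hs t ht h)

theorem wmap_closure {s t : G} (hS : P.S = {s, t}) :
    Subgroup.closure {wmap P s, wmap P t} = ⊤ := by
  have hs : s ∈ P.S := by rw [hS]; simp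
  have ht : t ∈ P.S := by rw [hS]; simp
  rw [eq_top_iff]
  intro w _
  obtain ⟨n, rfl⟩ := QuotientGroup.mk'_surjective (torus P) w
  -- the subgroup of `G` of elements of `N` mapping into the closure
  let H : Subgroup G :=
    ((Subgroup.closure {wmap P s, wmap P t}).comap (QuotientGroup.mk' (torus P))).map
      P.N.subtype
  have hH : ∀ g (hg : g ∈ P.N), wmap P g ∈ Subgroup.closure {wmap P s, wmap P t} → g ∈ H := by
    intro g hg hw
    refine ⟨⟨g, hg⟩, ?_, rfl⟩
    rw [wmap_of_mem P hg] at hw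
    exact hw
  have h1 : Subgroup.closure P.S ≤ H := by
    rw [Subgroup.closure_le, hS]
    intro x hx
    rcases hx with rfl | hx
    · exact hH _ (P.subset hs) (Subgroup.subset_closure (by simp))
    · rw [Set.mem_singleton_iff] at hx
      subst hx
      exact hH _ (P.subset ht) (Subgroup.subset_closure (by simp))
  have h2 : P.B ⊓ P.N ≤ H := by
    intro g hg
    refine hH g hg.2 ?_
    rw [(wmap_eq_one_iff P hg.2).2 hg.1]
    exact Subgroup.one_mem _
  have h3 : (n : G) ∈ H := by
    have : (n : G) ∈ Subgroup.closure P.S ⊔ (P.B ⊓ P.N) := by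
      rw [P.closure_sup]; exact n.2
    exact (sup_le h1 h2) this
  obtain ⟨n', hn', hnn'⟩ := h3
  have : n' = n := Subtype.ext hnn'
  rw [this] at hn'
  exact hn'

theorem good_alt {s t : G} (hS : P.S = {s, t}) (hst : s ≠ t) {k : ℕ}
    (hk : k < orderOf (wmap P s * wmap P t)) : Good P s (alt t s k) := by
  have hs : s ∈ P.S := by rw [hS]; simp
  have ht : t ∈ P.S := by rw [hS]; simp
  by_contra hng
  have hsN := P.subset hs
  have htN := P.subset ht
  have hword : IsWord P (altList t s k) (alt t s k) := by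
    refine ⟨fun x hx => ?_, ?_⟩
    · rcases altList_mem t s k x hx with rfl | rfl
      · exact ht
      · exact hs
    · rw [altList_prod]; exact eqv_refl P _
  obtain ⟨L', _, hlen, hw'⟩ := exchange P (altList t s k) (alt t s k) s hs
    (alt_mem htN hsN k).1 hword hng
  rw [altList_length] at hlen
  have hL'N : ∀ x ∈ L', x ∈ P.N := fun x hx => P.subset (hw'.1 x hx)
  have h1 : wmap P L'.prod = wmap P (s * alt t s k) :=
    (wmap_eq_iff P (Subgroup.list_prod_mem _ hL'N)
      (P.N.mul_mem hsN (alt_mem htN hsN k).1)).2 hw'.2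
  have h2 : wmap P (s * alt t s k) = alt (wmap P s) (wmap P t) (k + 1) :=
    (wmap_alt P hsN htN (k + 1)).1
  rw [wmap_list_prod P L' hL'N, h2] at h1
  refine list_prod_ne_alt (wmap P s) (wmap P t) (wmap_sq P hs) (wmap_sq P ht)
    (wmap_ne_one P hs) (wmap_ne_one P ht) (wmap_ne P hs ht hst) (k := k + 1) hk
    (L'.map (wmap P)) ?_ ?_ h1
  · intro x hx
    obtain ⟨y, hy, rfl⟩ := List.mem_map.1 hx
    have hyS : y ∈ P.S := hw'.1 y hy
    rw [hS] at hyS
    rcases hyS with rfl | hyS
    · exact Or.inl rfl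
    · rw [Set.mem_singleton_iff] at hyS
      subst hyS
      exact Or.inr rfl
  · rw [List.length_map]; omega

theorem orderOf_wmap_comm {s t : G} (hs : s ∈ P.S) (ht : t ∈ P.S) :
    orderOf (wmap P t * wmap P s) = orderOf (wmap P s * wmap P t) := by
  have h : wmap P t * wmap P s = (wmap P s * wmap P t)⁻¹ := by
    rw [_root_.mul_inv_rev, ← eq_inv_of_mul_eq_one_left (wmap_sq P hs),
      ← eq_inv_of_mul_eq_one_left (wmap_sq P ht)]
  rw [h, orderOf_inv]

section matrices
variable [Fintype (G ⧸ P.B)] [DecidableEq (G ⧸ P.B)]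

theorem alt_ind {s t : G} (hS : P.S = {s, t}) (hst : s ≠ t) (k : ℕ)
    (hk : k ≤ orderOf (wmap P s * wmap P t)) :
    alt (ind P s) (ind P t) k = ind P (alt s t k) ∧
      alt (ind P t) (ind P s) k = ind P (alt t s k) := by
  have hs : s ∈ P.S := by rw [hS]; simp
  have ht : t ∈ P.S := by rw [hS]; simp
  induction k with
  | zero => exact ⟨(ind_one P).symm, (ind_one P).symm⟩
  | succ k ih =>
    have ih' := ih (by omega)
    constructor
    · show ind P s * alt (ind P t) (ind P s) k = ind P (s * alt t s k)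
      rw [ih'.2]
      exact ind_mul_of_good P hs (alt_mem (P.subset ht) (P.subset hs) k).1
        (good_alt P hS hst (by omega))
    · show ind P t * alt (ind P s) (ind P t) k = ind P (t * alt s t k)
      rw [ih'.1]
      refine ind_mul_of_good P ht (alt_mem (P.subset hs) (P.subset ht) k).1
        (good_alt P (by rw [hS, Set.pair_comm]) hst.symm ?_)
      rw [orderOf_wmap_comm P hs ht]; omega

theorem alt_not_mem_B {s t : G} (hs : s ∈ P.S) (ht : t ∈ P.S) (hst : s ≠ t) {k : ℕ}
    (hk1 : 1 ≤ k) (hk : k ≤ orderOf (wmap P s * wmap P t)) : alt s t k ∉ P.B := by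
  intro hB
  have h1 : wmap P (alt s t k) = 1 :=
    (wmap_eq_one_iff P (alt_mem (P.subset hs) (P.subset ht) k).1).2 hB
  rw [(wmap_alt P (P.subset hs) (P.subset ht) k).1] at h1
  exact list_prod_ne_alt (wmap P s) (wmap P t) (wmap_sq P hs) (wmap_sq P ht)
    (wmap_ne_one P hs) (wmap_ne_one P ht) (wmap_ne P hs ht hst) hk [] (by simp)
    (by simp; omega) (by simpa using h1.symm)

omit [DecidableEq (G ⧸ P.B)] in
theorem rowsum_mul {X Y : Matrix (G ⧸ P.B) (G ⧸ P.B) ℝ} {r r' : ℝ}
    (hX : ∀ x, ∑ y, X x y = r) (hY : ∀ x, ∑ y, Y x y = r') (x : G ⧸ P.B) :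
    ∑ y, (X * Y) x y = r * r' := by
  simp only [Matrix.mul_apply]
  rw [Finset.sum_comm]
  simp only [← Finset.mul_sum, hY]
  rw [← Finset.sum_mul, hX]

theorem rowsum_alt {A C : Matrix (G ⧸ P.B) (G ⧸ P.B) ℝ} {a c : ℝ}
    (hA : ∀ x, ∑ y, A x y = a) (hC : ∀ x, ∑ y, C x y = c) (k : ℕ) :
    (∀ x, ∑ y, (alt A C k) x y = wt a c k) ∧ (∀ x, ∑ y, (alt C A k) x y = wt c a k) := by
  induction k with
  | zero =>
    constructor <;> intro x <;> simp [alt, wt, Matrix.one_apply]
  | succ k ih =>
    constructor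
    · intro x
      show ∑ y, (A * alt C A k) x y = a * wt c a k
      exact rowsum_mul P hA ih.2 x
    · intro x
      show ∑ y, (C * alt A C k) x y = c * wt a c k
      exact rowsum_mul P hC ih.1 x

end matrices

theorem exists_FHData (h2 : P.rank = 2) :
    ∃ (Ω : Type u) (_ : Fintype Ω) (_ : DecidableEq Ω) (m a c : ℕ) (A C : Matrix Ω Ω ℝ),
      FHData Ω m a c A C ∧ ((P.B ⊓ P.N).subgroupOf P.N).index = 2 * m := by
  classical
  let _ : Fintype (G ⧸ P.B) := Fintype.ofFinite _
  have hc2 : Nat.card P.S = 2 := h2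
  obtain ⟨s', t', hst', huniv⟩ := Nat.card_eq_two_iff.1 hc2
  obtain ⟨s, hs⟩ := s'
  obtain ⟨t, ht⟩ := t'
  have hst : s ≠ t := fun h => hst' (Subtype.ext h)
  have hS : P.S = {s, t} := by
    ext x
    constructor
    · intro hx
      have : (⟨x, hx⟩ : P.S) ∈ ({⟨s, hs⟩, ⟨t, ht⟩} : Set P.S) := by rw [huniv]; trivial
      rcases this with h | h
      · exact Or.inl (congrArg Subtype.val h)
      · exact Or.inr (congrArg Subtype.val h)
    · rintro (rfl | rfl)
      · exact hs
      · exact ht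
  obtain ⟨a, ha2, hAsq, hArow⟩ := ind_sq P hs
  obtain ⟨c, hc2', hCsq, hCrow⟩ := ind_sq P ht
  obtain ⟨hcard, hm2⟩ := dihedral_card (wmap P s) (wmap P t) (wmap_sq P hs) (wmap_sq P ht)
    (wmap_ne_one P hs) (wmap_ne_one P ht) (wmap_ne P hs ht hst) (wmap_closure P hS)
  set m := orderOf (wmap P s * wmap P t) with hm
  have hbraid : alt (ind P s) (ind P t) m = alt (ind P t) (ind P s) m := by
    rw [(alt_ind P hS hst m le_rfl).1, (alt_ind P hS hst m le_rfl).2]
    apply ind_congr
    rw [← wmap_eq_iff P (alt_mem (P.subset hs) (P.subset ht) m).1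
      (alt_mem (P.subset hs) (P.subset ht) m).2,
      (wmap_alt P (P.subset hs) (P.subset ht) m).1, (wmap_alt P (P.subset hs) (P.subset ht) m).2]
    exact alt_braid _ _ (wmap_sq P hs) (wmap_sq P ht)
  refine ⟨G ⧸ P.B, inferInstance, inferInstance, m, a, c, ind P s, ind P t, ?_, ?_⟩
  · refine ⟨hm2, ha2, hc2', Fintype.card_pos, ⟨hAsq, hCsq, hbraid⟩, ?_, ?_, ?_⟩
    · intro k hk1 hk
      rw [(alt_ind P hS hst k hk).1]
      exact trace_ind P (alt_not_mem_B P hs ht hst hk1 hk)
    · intro k hk1 hk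
      rw [(alt_ind P hS hst k hk).2]
      exact trace_ind P (alt_not_mem_B P ht hs hst.symm hk1
        (by rw [orderOf_wmap_comm P hs ht]; exact hk))
    · intro hodd
      obtain ⟨h, hh⟩ := hodd
      have hrow := rowsum_alt P hArow hCrow m
      have h1 : wt (a : ℝ) c m = wt (c : ℝ) a m := by
        have e1 := hrow.1 (QuotientGroup.mk 1)
        have e2 := hrow.2 (QuotientGroup.mk 1)
        rw [hbraid] at e1
        rw [← e1, ← e2]
      rw [hh, wt_succ, wt_succ, wt_two_mul, wt_two_mul, mul_comm (c : ℝ) a] at h1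
      have hpos : ((a : ℝ) * c) ^ h ≠ 0 := by
        have : (0 : ℝ) < (a : ℝ) * c := by positivity
        positivity
      exact_mod_cast mul_right_cancel₀ hpos h1
  · rw [Subgroup.index_eq_card]
    exact hcard

end main

end Cfsg.Agent.Lib.Lead.FH
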