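import Cfsg.Agent.Lib.Lead.FH.Defs
import Cfsg.Agent.Lib.Helper6.BN

/-!
# Feit–Higman (S1142): definitions for the `(B, N)` side (WP-A)
-/

set_option autoImplicit false
set_option linter.unusedTactic false

namespace Cfsg.Agent.Lib.Lead.FH

open Cfsg.Agent.Lib.Helper6.BN

variable {G : Type*} [Group G] (P : Cfsg.BNPair G)

/-- indicator matrix on `G ⧸ B` of the double coset `B n B`:
`ind n (xB) (yB) = 1` iff `x⁻¹ y ∈ B n B` -/
noncomputable def ind (n : G) : Matrix (G ⧸ P.B) (G ⧸ P.B) ℝ :=
  fun x y => open Classical in
    if (Quotient.out x)⁻¹ * Quotient.out y ∈ C P n then 1 else 0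

/-- `B ∩ N` as a subgroup of `N` -/
abbrev torus : Subgroup P.N := (P.B ⊓ P.N).subgroupOf P.N

instance torus_normal : (torus P).Normal := by
  constructor
  intro t ht n
  rw [Subgroup.mem_subgroupOf] at ht ⊢
  refine ⟨?_, P.N.mul_mem (P.N.mul_mem n.2 t.2) (P.N.inv_mem n.2)⟩
  simpa using P.conj_mem n.1 n.2 t.1 ht

/-- the Weyl group `N / (B ∩ N)` -/
abbrev weyl : Type _ := P.N ⧸ torus P

/-- the image in the Weyl group of an element of `G` (junk value `1` outside `N`) -/
noncomputable def wmap (g : G) : weyl P :=
  open Classical in if h : g ∈ P.N then QuotientGroup.mk' (torus P) ⟨g, h⟩ else 1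

/-- Hygiene: cite every on-demand lemma of the definitions above HERE (see `defs_eqns_realized`). -/
theorem adefs_eqns_realized : True := by
  (first | have := @ind.eq_1.{0} | have := @ind.eq_1); (first | have := @ind.eq_def.{0} | have := @ind.eq_def); (first | have := @ind.eq_unfold.{0} | have := @ind.eq_unfold)
  (first | have := @ind.fun_cases.{0} | have := @ind.fun_cases); (first | have := @ind.fun_cases_unfolding.{0} | have := @ind.fun_cases_unfolding)
  (first | have := @torus.eq_1.{0} | have := @torus.eq_1); (first | have := @torus.eq_def.{0} | have := @torus.eq_def); (first | have := @torus.eq_unfold.{0} | have := @torus.eq_unfold)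
  (first | have := @weyl.eq_1.{0} | have := @weyl.eq_1); (first | have := @weyl.eq_def.{0} | have := @weyl.eq_def); (first | have := @weyl.eq_unfold.{0} | have := @weyl.eq_unfold)
  (first | have := @wmap.eq_1.{0} | have := @wmap.eq_1); (first | have := @wmap.eq_def.{0} | have := @wmap.eq_def); (first | have := @wmap.eq_unfold.{0} | have := @wmap.eq_unfold)
  (first | have := @wmap.fun_cases.{0} | have := @wmap.fun_cases); (first | have := @wmap.fun_cases_unfolding.{0} | have := @wmap.fun_cases_unfolding)
  trivial

end Cfsg.Agent.Lib.Lead.FH
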