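import Mathlib
import Cfsg.Prelude.Def_LieExceptional

/-!
# Feit–Higman (S1142): shared definitions for the team project

Everything here is definitions only.  See the plan note (topic `S1142`) in the team database.
-/

set_option autoImplicit false
set_option linter.unusedTactic false

namespace Cfsg.Agent.Lib.Lead.FH

open Matrix

/-- alternating product `x * y * x * ⋯` with `k` factors (starting with `x`) -/
def alt {M : Type*} [Monoid M] (x y : M) : ℕ → M
  | 0 => 1
  | (k + 1) => x * alt y x k

/-- alternating product `⋯ * x * y * x` with `k` factors (ending with `x`) -/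
def ralt {M : Type*} [Monoid M] (x y : M) : ℕ → M
  | 0 => 1
  | (k + 1) => ralt y x k * x

/-- weight of the alternating word `a c a ⋯` (`k` letters): `a ^ ⌈k/2⌉ * c ^ ⌊k/2⌋` -/
noncomputable def wt (a c : ℝ) (k : ℕ) : ℝ := alt a c k

/-- a pair of elements satisfying the relations of the Hecke algebra of the dihedral group of
order `2 m` with parameters `a`, `c` -/
structure HeckePair {R : Type*} [Ring R] [Algebra ℝ R] (m : ℕ) (a c : ℝ) (A C : R) : Prop where
  sqA : A * A = a • (1 : R) + (a - 1) • A
  sqC : C * C = c • (1 : R) + (c - 1) • C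
  braid : alt A C m = alt C A m

/-- the matrix data extracted from a finite `(B, N)`-pair of rank 2 (a generalized `m`-gon with
parameters `a`, `c`): the two adjacency matrices on the set of chambers -/
structure FHData (Ω : Type*) [Fintype Ω] [DecidableEq Ω] (m a c : ℕ) (A C : Matrix Ω Ω ℝ) :
    Prop where
  two_le_m : 2 ≤ m
  two_le_a : 2 ≤ a
  two_le_c : 2 ≤ c
  card_pos : 0 < Fintype.card Ω
  pair : HeckePair m (a : ℝ) (c : ℝ) A C
  trA : ∀ k, 1 ≤ k → k ≤ m → Matrix.trace (alt A C k) = 0
  trC : ∀ k, 1 ≤ k → k ≤ m → Matrix.trace (alt C A k) = 0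
  odd : Odd m → a = c

/-- the "Casimir" sum `∑_w q_w⁻¹ A_w A'_w` over the `2 m` reduced words `w` -/
noncomputable def cas {R : Type*} [Ring R] [Algebra ℝ R] (m : ℕ) (a c : ℝ) (A C A' C' : R) : R :=
  ∑ k ∈ Finset.range m, ((wt c a k)⁻¹ • (alt C A k * alt C' A' k)
      + (wt a c (k + 1))⁻¹ • (alt A C (k + 1) * alt A' C' (k + 1)))

/-- `∑_w q_w⁻¹ A_w A_{w⁻¹}` -/
noncomputable def psi {R : Type*} [Ring R] [Algebra ℝ R] (m : ℕ) (a c : ℝ) (A C : R) : R :=
  ∑ k ∈ Finset.range m, ((wt c a k)⁻¹ • (alt C A k * ralt C A k)
      + (wt a c (k + 1))⁻¹ • (alt A C (k + 1) * ralt A C (k + 1)))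

/-- `∑_w q_w⁻¹ tr(A_w)²` for `2 × 2` matrices -/
noncomputable def Ssum (m : ℕ) (a c : ℝ) (A C : Matrix (Fin 2) (Fin 2) ℝ) : ℝ :=
  ∑ k ∈ Finset.range m, ((wt c a k)⁻¹ * (Matrix.trace (alt C A k)) ^ 2
      + (wt a c (k + 1))⁻¹ * (Matrix.trace (alt A C (k + 1))) ^ 2)

/-- `x_j = 2 √(ac) cos(2πj/m)` -/
noncomputable def xval (a c : ℝ) (m j : ℕ) : ℝ :=
  2 * Real.sqrt (a * c) * Real.cos (2 * Real.pi * j / m)

/-- the explicit 2-dimensional representation -/
noncomputable def RA (a : ℝ) : Matrix (Fin 2) (Fin 2) ℝ := !![-1, 0; 1, a]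

/-- the explicit 2-dimensional representation -/
noncomputable def RC (c v : ℝ) : Matrix (Fin 2) (Fin 2) ℝ := !![c, v; 0, -1]

/-- closed form of `Ssum` for the explicit representation -/
noncomputable def Sval (a c : ℝ) (m j : ℕ) : ℝ :=
  if Even m then
    2 * m * (a + c + xval a c m j) * (a * c + 1 - xval a c m j) / (4 * a * c - xval a c m j ^ 2)
  else 2 * m * (a ^ 2 + 1 - xval a c m j) / (2 * a - xval a c m j)

/-- Hygiene: cite every on-demand lemma of the definitions above HERE, so that Lean writes them
into this file and no downstream file holds its own copy. -/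
theorem defs_eqns_realized : True := by
  (first | have := @alt.eq_1.{0} | have := @alt.eq_1); (first | have := @alt.eq_2.{0} | have := @alt.eq_2); (first | have := @alt.eq_def.{0} | have := @alt.eq_def); (first | have := @alt.eq_unfold.{0} | have := @alt.eq_unfold)
  (first | have := @alt.induct.{0} | have := @alt.induct); (first | have := @alt.induct_unfolding.{0} | have := @alt.induct_unfolding)
  (first | have := @alt.fun_cases.{0} | have := @alt.fun_cases); (first | have := @alt.fun_cases_unfolding.{0} | have := @alt.fun_cases_unfolding)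
  (first | have := @ralt.eq_1.{0} | have := @ralt.eq_1); (first | have := @ralt.eq_2.{0} | have := @ralt.eq_2); (first | have := @ralt.eq_def.{0} | have := @ralt.eq_def); (first | have := @ralt.eq_unfold.{0} | have := @ralt.eq_unfold)
  (first | have := @ralt.induct.{0} | have := @ralt.induct); (first | have := @ralt.induct_unfolding.{0} | have := @ralt.induct_unfolding)
  (first | have := @ralt.fun_cases.{0} | have := @ralt.fun_cases); (first | have := @ralt.fun_cases_unfolding.{0} | have := @ralt.fun_cases_unfolding)
  (first | have := @wt.eq_1.{0} | have := @wt.eq_1); (first | have := @wt.eq_def.{0} | have := @wt.eq_def); (first | have := @wt.eq_unfold.{0} | have := @wt.eq_unfold)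
  (first | have := @wt.fun_cases.{0} | have := @wt.fun_cases); (first | have := @wt.fun_cases_unfolding.{0} | have := @wt.fun_cases_unfolding)
  (first | have := @cas.eq_1.{0} | have := @cas.eq_1); (first | have := @cas.eq_def.{0} | have := @cas.eq_def); (first | have := @cas.eq_unfold.{0} | have := @cas.eq_unfold)
  (first | have := @cas.fun_cases.{0} | have := @cas.fun_cases); (first | have := @cas.fun_cases_unfolding.{0} | have := @cas.fun_cases_unfolding)
  (first | have := @psi.eq_1.{0} | have := @psi.eq_1); (first | have := @psi.eq_def.{0} | have := @psi.eq_def); (first | have := @psi.eq_unfold.{0} | have := @psi.eq_unfold)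
  (first | have := @psi.fun_cases.{0} | have := @psi.fun_cases); (first | have := @psi.fun_cases_unfolding.{0} | have := @psi.fun_cases_unfolding)
  (first | have := @Ssum.eq_1.{0} | have := @Ssum.eq_1); (first | have := @Ssum.eq_def.{0} | have := @Ssum.eq_def); (first | have := @Ssum.eq_unfold.{0} | have := @Ssum.eq_unfold)
  (first | have := @Ssum.fun_cases.{0} | have := @Ssum.fun_cases); (first | have := @Ssum.fun_cases_unfolding.{0} | have := @Ssum.fun_cases_unfolding)
  (first | have := @xval.eq_1.{0} | have := @xval.eq_1); (first | have := @xval.eq_def.{0} | have := @xval.eq_def); (first | have := @xval.eq_unfold.{0} | have := @xval.eq_unfold)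
  (first | have := @xval.fun_cases.{0} | have := @xval.fun_cases); (first | have := @xval.fun_cases_unfolding.{0} | have := @xval.fun_cases_unfolding)
  (first | have := @RA.eq_1.{0} | have := @RA.eq_1); (first | have := @RA.eq_def.{0} | have := @RA.eq_def); (first | have := @RA.eq_unfold.{0} | have := @RA.eq_unfold)
  (first | have := @RA.fun_cases.{0} | have := @RA.fun_cases); (first | have := @RA.fun_cases_unfolding.{0} | have := @RA.fun_cases_unfolding)
  (first | have := @RC.eq_1.{0} | have := @RC.eq_1); (first | have := @RC.eq_def.{0} | have := @RC.eq_def); (first | have := @RC.eq_unfold.{0} | have := @RC.eq_unfold)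
  (first | have := @RC.fun_cases.{0} | have := @RC.fun_cases); (first | have := @RC.fun_cases_unfolding.{0} | have := @RC.fun_cases_unfolding)
  (first | have := @Sval.eq_1.{0} | have := @Sval.eq_1); (first | have := @Sval.eq_def.{0} | have := @Sval.eq_def); (first | have := @Sval.eq_unfold.{0} | have := @Sval.eq_unfold)
  (first | have := @Sval.fun_cases.{0} | have := @Sval.fun_cases); (first | have := @Sval.fun_cases_unfolding.{0} | have := @Sval.fun_cases_unfolding)
  trivial

end Cfsg.Agent.Lib.Lead.FH
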