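import Cfsg.Agent.Lib.Lead.FH.Wt
import Cfsg.Agent.Lib.Helper74.FHB1p
import Cfsg.Agent.Lib.Helper78.FHB5
import Cfsg.Agent.Lib.Helper76.FHB2
import Cfsg.Agent.Lib.Helper96.FHB3
import Cfsg.Agent.Lib.Helper78.FHB4
import Cfsg.Agent.Lib.Lead.FH.A4

/-!
# Feit–Higman for `(B, N)`-pairs of rank 2 (S1142): assembly

Team project: B1/B2/A1 helper76, B1' helper74, B3 helper96, B4/B5 helper78, A2 helper65,
A3 helper74, plan/skeleton/A4/assembly lead.
-/

set_option autoImplicit false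

namespace Cfsg.Agent.Lib.Lead.FH

open Matrix

theorem FHData.m_mem {Ω : Type*} [Fintype Ω] [DecidableEq Ω] {m a c : ℕ} {A C : Matrix Ω Ω ℝ}
    (h : FHData Ω m a c A C) : m = 2 ∨ m = 3 ∨ m = 4 ∨ m = 6 ∨ m = 8 := by
  have ha0 : (a : ℝ) ≠ 0 := by
    have := h.two_le_a; positivity
  have hc0 : (c : ℝ) ≠ 0 := by
    have := h.two_le_c; positivity
  refine arith h.two_le_m h.two_le_a h.two_le_c h.card_pos h.odd ?_
  intro j hj hj2
  have hR := heckePair_R h.two_le_m h.two_le_a h.two_le_c h.odd hj hj2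
  have hv := v_pos (m := m) h.two_le_a h.two_le_c hj hj2
  have hpsi := psi_eq_Ssum ha0 hc0 (wt_symm_of h.odd) hR
    (fun M h1 h2 => commutant_R (by have := h.two_le_a; positivity) hv.ne' M h1 h2)
  rw [Ssum_R h.two_le_m h.two_le_a h.two_le_c h.odd hj hj2] at hpsi
  exact exists_nat_mul h hR hpsi

/-- **Feit–Higman** for `(B, N)`-pairs of rank 2. -/
theorem feit_higman {G : Type*} [Group G] [Finite G] (P : Cfsg.BNPair G)
    (h2 : P.rank = 2) :
    ((P.B ⊓ P.N).subgroupOf P.N).index ∈ ({4, 6, 8, 12, 16} : Set ℕ) := by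
  obtain ⟨Ω, _, _, m, a, c, A, C, h, hidx⟩ := exists_FHData P h2
  rw [hidx]
  rcases h.m_mem with rfl | rfl | rfl | rfl | rfl <;> simp

end Cfsg.Agent.Lib.Lead.FH
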